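import Cfsg.Agent.Comp.E6M.CD

set_option autoImplicit false
set_option maxRecDepth 100000

namespace Cfsg.Agent.Comp.E6M
open Cfsg.Agent.Comp Cfsg.Agent.Schur

theorem ins0 : InsOK 36 0 840 T Y 3 I0 :=
  InsOK.of 11 (show lall (insOK (nat_lit 36) (nat_lit 0) (nat_lit 11) (nat_lit 840) T Y (nat_lit 3)) I0 = true by decide +kernel)

theorem ins3 : InsOK 36 0 840 T Y 3 I3 :=
  InsOK.of 11 (show lall (insOK (nat_lit 36) (nat_lit 0) (nat_lit 11) (nat_lit 840) T Y (nat_lit 3)) I3 = true by decide +kernel)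

theorem ins6 : InsOK 36 0 840 T Y 3 I6 :=
  InsOK.of 11 (show lall (insOK (nat_lit 36) (nat_lit 0) (nat_lit 11) (nat_lit 840) T Y (nat_lit 3)) I6 = true by decide +kernel)

theorem ins9 : InsOK 36 0 840 T Y 3 I9 :=
  InsOK.of 11 (show lall (insOK (nat_lit 36) (nat_lit 0) (nat_lit 11) (nat_lit 840) T Y (nat_lit 3)) I9 = true by decide +kernel)

end Cfsg.Agent.Comp.E6M
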