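import Cfsg.Agent.Comp.E6M.CD

set_option autoImplicit false
set_option maxRecDepth 100000

namespace Cfsg.Agent.Comp.E6M
open Cfsg.Agent.Comp Cfsg.Agent.Schur

theorem ins1 : InsOK 36 0 840 T Y 3 I1 :=
  InsOK.of 11 (show lall (insOK (nat_lit 36) (nat_lit 0) (nat_lit 11) (nat_lit 840) T Y (nat_lit 3)) I1 = true by decide +kernel)

theorem ins4 : InsOK 36 0 840 T Y 3 I4 :=
  InsOK.of 11 (show lall (insOK (nat_lit 36) (nat_lit 0) (nat_lit 11) (nat_lit 840) T Y (nat_lit 3)) I4 = true by decide +kernel)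

theorem ins7 : InsOK 36 0 840 T Y 3 I7 :=
  InsOK.of 11 (show lall (insOK (nat_lit 36) (nat_lit 0) (nat_lit 11) (nat_lit 840) T Y (nat_lit 3)) I7 = true by decide +kernel)

theorem ins10 : InsOK 36 0 840 T Y 3 I10 :=
  InsOK.of 11 (show lall (insOK (nat_lit 36) (nat_lit 0) (nat_lit 11) (nat_lit 840) T Y (nat_lit 3)) I10 = true by decide +kernel)

end Cfsg.Agent.Comp.E6M
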