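import Cfsg.Agent.Comp.E6M.CD

set_option autoImplicit false
set_option maxRecDepth 100000

namespace Cfsg.Agent.Comp.E6M
open Cfsg.Agent.Comp Cfsg.Agent.Schur

theorem ins2 : InsOK 36 0 840 T Y 3 I2 :=
  InsOK.of 11 (show lall (insOK (nat_lit 36) (nat_lit 0) (nat_lit 11) (nat_lit 840) T Y (nat_lit 3)) I2 = true by decide +kernel)

theorem ins5 : InsOK 36 0 840 T Y 3 I5 :=
  InsOK.of 11 (show lall (insOK (nat_lit 36) (nat_lit 0) (nat_lit 11) (nat_lit 840) T Y (nat_lit 3)) I5 = true by decide +kernel)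

theorem ins8 : InsOK 36 0 840 T Y 3 I8 :=
  InsOK.of 11 (show lall (insOK (nat_lit 36) (nat_lit 0) (nat_lit 11) (nat_lit 840) T Y (nat_lit 3)) I8 = true by decide +kernel)

theorem ins11 : InsOK 36 0 840 T Y 3 I11 :=
  InsOK.of 11 (show lall (insOK (nat_lit 36) (nat_lit 0) (nat_lit 11) (nat_lit 840) T Y (nat_lit 3)) I11 = true by decide +kernel)

end Cfsg.Agent.Comp.E6M
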