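import Cfsg.Agent.Comp.E6M.CD

set_option autoImplicit false
set_option maxRecDepth 100000

namespace Cfsg.Agent.Comp.E6M
open Cfsg.Agent.Comp Cfsg.Agent.Schur

theorem tgt1 : TgtOK 2 840 T 2 3 KL U C 10 14 :=
  TgtOK.of 11 4 rfl (show tgtRows (nat_lit 2) (nat_lit 11) (nat_lit 840) T (nat_lit 2) (nat_lit 3) KL U C (nat_lit 10) (nat_lit 4) = true by decide +kernel)

theorem tgt5 : TgtOK 2 840 T 2 3 KL U C 22 24 :=
  TgtOK.of 11 2 rfl (show tgtRows (nat_lit 2) (nat_lit 11) (nat_lit 840) T (nat_lit 2) (nat_lit 3) KL U C (nat_lit 22) (nat_lit 2) = true by decide +kernel)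

theorem tgt9 : TgtOK 2 840 T 2 3 KL U C 30 31 :=
  TgtOK.of 11 1 rfl (show tgtRows (nat_lit 2) (nat_lit 11) (nat_lit 840) T (nat_lit 2) (nat_lit 3) KL U C (nat_lit 30) (nat_lit 1) = true by decide +kernel)

theorem tgt13 : TgtOK 2 840 T 2 3 KL U C 34 35 :=
  TgtOK.of 11 1 rfl (show tgtRows (nat_lit 2) (nat_lit 11) (nat_lit 840) T (nat_lit 2) (nat_lit 3) KL U C (nat_lit 34) (nat_lit 1) = true by decide +kernel)

end Cfsg.Agent.Comp.E6M
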