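import Cfsg.Agent.Comp.E6M.CD

set_option autoImplicit false
set_option maxRecDepth 100000

namespace Cfsg.Agent.Comp.E6M
open Cfsg.Agent.Comp Cfsg.Agent.Schur

theorem tgt2 : TgtOK 2 840 T 2 3 KL U C 14 17 :=
  TgtOK.of 11 3 rfl (show tgtRows (nat_lit 2) (nat_lit 11) (nat_lit 840) T (nat_lit 2) (nat_lit 3) KL U C (nat_lit 14) (nat_lit 3) = true by decide +kernel)

theorem tgt6 : TgtOK 2 840 T 2 3 KL U C 24 26 :=
  TgtOK.of 11 2 rfl (show tgtRows (nat_lit 2) (nat_lit 11) (nat_lit 840) T (nat_lit 2) (nat_lit 3) KL U C (nat_lit 24) (nat_lit 2) = true by decide +kernel)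

theorem tgt10 : TgtOK 2 840 T 2 3 KL U C 31 32 :=
  TgtOK.of 11 1 rfl (show tgtRows (nat_lit 2) (nat_lit 11) (nat_lit 840) T (nat_lit 2) (nat_lit 3) KL U C (nat_lit 31) (nat_lit 1) = true by decide +kernel)

theorem tgt14 : TgtOK 2 840 T 2 3 KL U C 35 36 :=
  TgtOK.of 11 1 rfl (show tgtRows (nat_lit 2) (nat_lit 11) (nat_lit 840) T (nat_lit 2) (nat_lit 3) KL U C (nat_lit 35) (nat_lit 1) = true by decide +kernel)

end Cfsg.Agent.Comp.E6M
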