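import Cfsg.Agent.Comp.E6M.CI0
import Cfsg.Agent.Comp.E6M.CI1
import Cfsg.Agent.Comp.E6M.CI2
import Cfsg.Agent.Comp.E6M.CT0
import Cfsg.Agent.Comp.E6M.CT1
import Cfsg.Agent.Comp.E6M.CT2
import Cfsg.Agent.Comp.E6M.CT3

set_option autoImplicit false
set_option maxRecDepth 100000

namespace Cfsg.Agent.Comp.E6M
open Cfsg.Agent.Comp Cfsg.Agent.Schur

theorem ins : InsOK 36 0 840 T Y 3 I := ins0.append (ins1.append (ins2.append (ins3.append (ins4.append (ins5.append (ins6.append (ins7.append (ins8.append (ins9.append (ins10.append (ins11)))))))))))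

theorem ord : ordsOK 2 (Nat.succ 3) 11 840 (insL I) K [1, 1] O = true := by
  rw [L_eq]
  exact (show ordsOK (nat_lit 2) (Nat.succ (nat_lit 3)) (nat_lit 11) (nat_lit 840) L K [1, 1] O = true by decide +kernel)

theorem tgt : TgtOK 2 840 T 2 3 (K ++ insL I) U C 0 36 := KL_eq ▸ ((((((((((((((tgt0.join tgt1).join tgt2).join tgt3).join tgt4).join tgt5).join tgt6).join tgt7).join tgt8).join tgt9).join tgt10).join tgt11).join tgt12).join tgt13).join tgt14)

end Cfsg.Agent.Comp.E6M
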