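import Cfsg.Agent.Comp.E6M.Mat

set_option autoImplicit false
set_option maxRecDepth 100000

namespace Cfsg.Agent.Comp.E6M
open Cfsg.Agent.Comp Cfsg.Agent.Schur

noncomputable def EE : List (List Nat × List Nat) := pcEqs 2 36 T ++ stEqs Y

theorem ee0 : ∀ e ∈ (EE.drop 0).take 140, ev Mm e.1 = ev Mm e.2 := mxs.eqs Mok (by decide +kernel)

theorem ee1 : ∀ e ∈ (EE.drop 140).take 140, ev Mm e.1 = ev Mm e.2 := mxs.eqs Mok (by decide +kernel)

theorem ee2 : ∀ e ∈ (EE.drop 280).take 140, ev Mm e.1 = ev Mm e.2 := mxs.eqs Mok (by decide +kernel)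

theorem ee3 : ∀ e ∈ (EE.drop 420).take 140, ev Mm e.1 = ev Mm e.2 := mxs.eqs Mok (by decide +kernel)

theorem ee4 : ∀ e ∈ (EE.drop 560).take 140, ev Mm e.1 = ev Mm e.2 := mxs.eqs Mok (by decide +kernel)

theorem ee5 : ∀ e ∈ (EE.drop 700).take 140, ev Mm e.1 = ev Mm e.2 := mxs.eqs Mok (by decide +kernel)

theorem ee : ∀ e ∈ pcEqs 2 36 T ++ stEqs Y, ev Mm e.1 = ev Mm e.2 := by
  rw [show pcEqs 2 36 T ++ stEqs Y = (EE.drop 0).take 140 ++ (EE.drop 140).take 140 ++ (EE.drop 280).take 140 ++ (EE.drop 420).take 140 ++ (EE.drop 560).take 140 ++ (EE.drop 700).take 140 by decide +kernel]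
  simp only [List.forall_mem_append]
  exact ⟨⟨⟨⟨⟨ee0, ee1⟩, ee2⟩, ee3⟩, ee4⟩, ee5⟩

end Cfsg.Agent.Comp.E6M
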