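import Cfsg.Agent.Comp.E6M.Mat

set_option autoImplicit false
set_option maxRecDepth 100000

namespace Cfsg.Agent.Comp.E6M
open Cfsg.Agent.Comp

theorem m1 : Mm 43 = Lie.chevE6.x K4 39 (1) := by rw [Mfast]; decide +kernel

theorem m5 : Mm 47 = Lie.chevE6.x K4 36 (w4 + 1) := by rw [Mfast]; decide +kernel

theorem m9 : Mm 51 = Lie.chevE6.x K4 37 (w4 + 1) := by rw [Mfast]; decide +kernel

theorem m13 : Mm 55 = Lie.chevE6.x K4 57 (w4) := by rw [Mfast]; decide +kernel

theorem m17 : Mm 59 = Lie.chevE6.x K4 43 (w4) := by rw [Mfast]; decide +kernel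

theorem m21 : Mm 63 = Lie.chevE6.x K4 41 (1) := by rw [Mfast]; decide +kernel

theorem m25 : Mm 67 = Lie.chevE6.x K4 48 (1) := by rw [Mfast]; decide +kernel

theorem m29 : Mm 71 = Lie.chevE6.x K4 61 (1) := by rw [Mfast]; decide +kernel

theorem m33 : Mm 75 = Lie.chevE6.x K4 59 (1) := by rw [Mfast]; decide +kernel

theorem m37 : Mm 79 = Lie.chevE6.x K4 60 (1) := by rw [Mfast]; decide +kernel

theorem m41 : Mm 83 = Lie.chevE6.x K4 62 (w4) := by rw [Mfast]; decide +kernel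

theorem m45 : Mm 87 = Lie.chevE6.x K4 54 (1) := by rw [Mfast]; decide +kernel

theorem m49 : Mm 91 = Lie.chevE6.x K4 67 (1) := by rw [Mfast]; decide +kernel

theorem m53 : Mm 95 = Lie.chevE6.x K4 68 (1) := by rw [Mfast]; decide +kernel

theorem m57 : Mm 99 = Lie.chevE6.x K4 69 (1) := by rw [Mfast]; decide +kernel

theorem m61 : Mm 103 = Lie.chevE6.x K4 32 (1) := by rw [Mfast]; decide +kernel

theorem m65 : Mm 107 = Lie.chevE6.x K4 34 (1) := by rw [Mfast]; decide +kernel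

theorem m69 : Mm 111 = Lie.chevE6.x K4 15 (w4) := by rw [Mfast]; decide +kernel

end Cfsg.Agent.Comp.E6M
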