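import Cfsg.Agent.Comp.E6M.Mat

set_option autoImplicit false
set_option maxRecDepth 100000

namespace Cfsg.Agent.Comp.E6M
open Cfsg.Agent.Comp

theorem m2 : Mm 44 = Lie.chevE6.x K4 56 (1) := by rw [Mfast]; decide +kernel

theorem m6 : Mm 48 = Lie.chevE6.x K4 42 (1) := by rw [Mfast]; decide +kernel

theorem m10 : Mm 52 = Lie.chevE6.x K4 47 (1) := by rw [Mfast]; decide +kernel

theorem m14 : Mm 56 = Lie.chevE6.x K4 38 (w4 + 1) := by rw [Mfast]; decide +kernel

theorem m18 : Mm 60 = Lie.chevE6.x K4 40 (w4 + 1) := by rw [Mfast]; decide +kernel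

theorem m22 : Mm 64 = Lie.chevE6.x K4 58 (w4) := by rw [Mfast]; decide +kernel

theorem m26 : Mm 68 = Lie.chevE6.x K4 50 (w4) := by rw [Mfast]; decide +kernel

theorem m30 : Mm 72 = Lie.chevE6.x K4 49 (1) := by rw [Mfast]; decide +kernel

theorem m34 : Mm 76 = Lie.chevE6.x K4 45 (1) := by rw [Mfast]; decide +kernel

theorem m38 : Mm 80 = Lie.chevE6.x K4 53 (1) := by rw [Mfast]; decide +kernel

theorem m42 : Mm 84 = Lie.chevE6.x K4 52 (w4 + 1) := by rw [Mfast]; decide +kernel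

theorem m46 : Mm 88 = Lie.chevE6.x K4 64 (w4) := by rw [Mfast]; decide +kernel

theorem m50 : Mm 92 = Lie.chevE6.x K4 55 (1) := by rw [Mfast]; decide +kernel

theorem m54 : Mm 96 = Lie.chevE6.x K4 66 (1) := by rw [Mfast]; decide +kernel

theorem m58 : Mm 100 = Lie.chevE6.x K4 70 (1) := by rw [Mfast]; decide +kernel

theorem m62 : Mm 104 = Lie.chevE6.x K4 15 (1) := by rw [Mfast]; decide +kernel

theorem m66 : Mm 108 = Lie.chevE6.x K4 15 (w4 + 1) := by rw [Mfast]; decide +kernel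

theorem m70 : Mm 112 = Lie.chevE6.x K4 36 (w4) := by rw [Mfast]; decide +kernel

end Cfsg.Agent.Comp.E6M
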