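import Cfsg.Agent.Comp.E6M.Mat

set_option autoImplicit false
set_option maxRecDepth 100000

namespace Cfsg.Agent.Comp.E6M
open Cfsg.Agent.Comp

theorem m3 : Mm 45 = Lie.chevE6.x K4 36 (1) := by rw [Mfast]; decide +kernel

theorem m7 : Mm 49 = Lie.chevE6.x K4 37 (1) := by rw [Mfast]; decide +kernel

theorem m11 : Mm 53 = Lie.chevE6.x K4 57 (1) := by rw [Mfast]; decide +kernel

theorem m15 : Mm 57 = Lie.chevE6.x K4 43 (1) := by rw [Mfast]; decide +kernel

theorem m19 : Mm 61 = Lie.chevE6.x K4 44 (1) := by rw [Mfast]; decide +kernel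

theorem m23 : Mm 65 = Lie.chevE6.x K4 41 (w4 + 1) := by rw [Mfast]; decide +kernel

theorem m27 : Mm 69 = Lie.chevE6.x K4 48 (w4 + 1) := by rw [Mfast]; decide +kernel

theorem m31 : Mm 73 = Lie.chevE6.x K4 61 (w4) := by rw [Mfast]; decide +kernel

theorem m35 : Mm 77 = Lie.chevE6.x K4 59 (w4) := by rw [Mfast]; decide +kernel

theorem m39 : Mm 81 = Lie.chevE6.x K4 62 (1) := by rw [Mfast]; decide +kernel

theorem m43 : Mm 85 = Lie.chevE6.x K4 63 (1) := by rw [Mfast]; decide +kernel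

theorem m47 : Mm 89 = Lie.chevE6.x K4 54 (w4 + 1) := by rw [Mfast]; decide +kernel

theorem m51 : Mm 93 = Lie.chevE6.x K4 67 (w4) := by rw [Mfast]; decide +kernel

theorem m55 : Mm 97 = Lie.chevE6.x K4 68 (w4) := by rw [Mfast]; decide +kernel

theorem m59 : Mm 101 = Lie.chevE6.x K4 71 (1) := by rw [Mfast]; decide +kernel

theorem m63 : Mm 105 = Lie.chevE6.x K4 35 (1) := by rw [Mfast]; decide +kernel

theorem m67 : Mm 109 = Lie.chevE6.x K4 35 (w4) := by rw [Mfast]; decide +kernel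

theorem m71 : Mm 113 = Lie.chevE6.x K4 35 (w4 + 1) := by rw [Mfast]; decide +kernel

end Cfsg.Agent.Comp.E6M
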