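import Cfsg.Agent.Comp.E6M.R0
import Cfsg.Agent.Comp.E6M.R1
import Cfsg.Agent.Comp.E6M.R2
import Cfsg.Agent.Comp.E6M.R3
import Cfsg.Agent.Comp.E6M.EE
import Cfsg.Agent.TrX.R
import Cfsg.Agent.TrX.S

/-! The letters of the presentation as elements of the twisted group over the field with four
elements. -/

set_option autoImplicit false
set_option maxRecDepth 100000
set_option linter.unusedSectionVars false
set_option synthInstance.maxSize 4096
set_option synthInstance.maxHeartbeats 400000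
set_option maxHeartbeats 400000

namespace Cfsg.Agent.Comp.E6M
open Cfsg.Lie Cfsg.Agent.Chev Cfsg.Agent.Comp

universe u
attribute [local instance] good2E6

/-- the letters that belong to the roots sent to negative roots by the `i`-th reflection -/
def Dl (i k : ℕ) : Bool := if i = 0 then k == 0 else if i = 1 then k == 1 else
  if i = 2 then (k == 2 || k == 3) else if i = 3 then (k == 4 || k == 5) else false

/-- root of a root letter -/
def lrt (x : ℕ) : Rt chevE6 := (Fin.ofNat 72 (RT.getD (x - 42) (0, 0)).1 : Fin 72)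
/-- field element of a root letter -/
def ltt (x : ℕ) : K4 := (RT.getD (x - 42) (0, 0)).2
/-- defining word of a letter -/
def lwd (k : ℕ) : List ℕ := (DF.getD k ([], [])).2
/-- first root letter -/
def lx0 (k : ℕ) : ℕ := (lwd k).headD 0
/-- deleted roots -/
def lTT (i : ℕ) : List ℕ := [[46], [39], [56, 36], [42, 37]].getD i []

theorem lm_all : ∀ i, i < 72 →
    Mm (42 + i) = chevE6.x K4 (RT.getD i (0, 0)).1 (RT.getD i (0, 0)).2
  | 0, _ => m0
  | 1, _ => m1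
  | 2, _ => m2
  | 3, _ => m3
  | 4, _ => m4
  | 5, _ => m5
  | 6, _ => m6
  | 7, _ => m7
  | 8, _ => m8
  | 9, _ => m9
  | 10, _ => m10
  | 11, _ => m11
  | 12, _ => m12
  | 13, _ => m13
  | 14, _ => m14
  | 15, _ => m15
  | 16, _ => m16
  | 17, _ => m17
  | 18, _ => m18
  | 19, _ => m19
  | 20, _ => m20
  | 21, _ => m21
  | 22, _ => m22
  | 23, _ => m23
  | 24, _ => m24
  | 25, _ => m25
  | 26, _ => m26
  | 27, _ => m27
  | 28, _ => m28
  | 29, _ => m29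
  | 30, _ => m30
  | 31, _ => m31
  | 32, _ => m32
  | 33, _ => m33
  | 34, _ => m34
  | 35, _ => m35
  | 36, _ => m36
  | 37, _ => m37
  | 38, _ => m38
  | 39, _ => m39
  | 40, _ => m40
  | 41, _ => m41
  | 42, _ => m42
  | 43, _ => m43
  | 44, _ => m44
  | 45, _ => m45
  | 46, _ => m46
  | 47, _ => m47
  | 48, _ => m48
  | 49, _ => m49
  | 50, _ => m50
  | 51, _ => m51
  | 52, _ => m52
  | 53, _ => m53
  | 54, _ => m54
  | 55, _ => m55
  | 56, _ => m56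
  | 57, _ => m57
  | 58, _ => m58
  | 59, _ => m59
  | 60, _ => m60
  | 61, _ => m61
  | 62, _ => m62
  | 63, _ => m63
  | 64, _ => m64
  | 65, _ => m65
  | 66, _ => m66
  | 67, _ => m67
  | 68, _ => m68
  | 69, _ => m69
  | 70, _ => m70
  | 71, _ => m71
  | n + 72, h => absurd h (by omega)

theorem lrt_val : ∀ i < 72, ((lrt (42 + i) : Rt chevE6) : ℕ) = (RT.getD i (0, 0)).1 ∧
    ltt (42 + i) = (RT.getD i (0, 0)).2 := by decide +kernel

theorem lwd_spec : ∀ k < 42, ([k], lwd k) ∈ DF ∧ ∀ x ∈ lwd k, 42 ≤ x ∧ x < 114 := by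
  decide +kernel

theorem lEE_lt : ∀ e ∈ Schur.pcEqs 2 36 T ++ Schur.stEqs Y,
    (∀ x ∈ e.1, x < 42) ∧ ∀ x ∈ e.2, x < 42 := by decide +kernel

theorem lspec : ∀ k < 36, Pos (lrt (lx0 k)) ∧
    ((symE6.p (lrt (lx0 k)) = lrt (lx0 k) ∧ ltt (lx0 k) = 1 ∧ lwd k = [lx0 k]) ∨
      (symE6.p (lrt (lx0 k)) ≠ lrt (lx0 k) ∧ Pos (symE6.p (lrt (lx0 k))) ∧
        lwd k = [lx0 k, lx0 k + 1] ∧ lrt (lx0 k + 1) = symE6.p (lrt (lx0 k)) ∧
        ltt (lx0 k + 1) = ltt (lx0 k) ^ 2)) := by decide +kernel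

theorem lcov1 : ∀ i < 5, ∀ r : Rt chevE6, (r : ℕ) ∉ lTT i → Pos r → symE6.p r = r →
    ∃ k < 36, Dl i k = false ∧ lrt (lx0 k) = r := by decide +kernel

theorem lcov2 : ∀ i < 5, ∀ r : Rt chevE6, (r : ℕ) ∉ lTT i → Pos r → symE6.p r ≠ r →
    ∃ k < 35, Dl i k = false ∧ Dl i (k + 1) = false ∧
      (lrt (lx0 k) = r ∨ lrt (lx0 k) = symE6.p r) ∧ ltt (lx0 k) = 1 ∧
      lrt (lx0 (k + 1)) = lrt (lx0 k) ∧ ltt (lx0 (k + 1)) = w4 := by decide +kernel

theorem lso : ∀ r : Rt chevE6, symE6.p (symE6.p r) = r ∧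
    (symE6.p r ≠ r → SO chevE6 r (symE6.p r)) := by decide +kernel

theorem lk4 : ∀ a : K4, (a = 0 ∨ a = 1 ∨ a = w4 ∨ a = 1 + w4) ∧ (a ^ 2) ^ 2 = a := by
  decide +kernel

variable {K : Type u} [Field K] [Fintype K] (ι : K4 →+* K)

/-- root letters -/
noncomputable def lA (x : ℕ) : GL chevE6.Idx K := (glSys chevE6 K).x (lrt x) (ι (ltt x))
/-- letters -/
noncomputable def lG (k : ℕ) : GL chevE6.Idx K := ev (lA ι) (lwd k)

theorem lA_val {x : ℕ} (h : 42 ≤ x ∧ x < 114) :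
    ((lA ι x : GL chevE6.Idx K) : Matrix chevE6.Idx chevE6.Idx K) = ι.mapMatrix (Mm x) := by
  obtain ⟨i, rfl⟩ : ∃ i, x = 42 + i := ⟨x - 42, by omega⟩
  have hi : i < 72 := by omega
  rw [lm_all i hi, ← (lrt_val i hi).1, ← (lrt_val i hi).2, lA, glSys_x, XG_val,
    ChevalleyDatum.x, ChevalleyDatum.x, dif_pos (lrt (42 + i)).2, dif_pos (lrt (42 + i)).2,
    xMat_map]

theorem lG_val {k : ℕ} (h : k < 42) :
    ((lG ι k : GL chevE6.Idx K) : Matrix chevE6.Idx chevE6.Idx K) = ι.mapMatrix (Mm k) := by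
  have h1 := defs _ (lwd_spec k h).1
  rw [ev_single] at h1
  rw [h1, map_ev Mm ι.mapMatrix, lG]
  exact (map_ev _ (Units.coeHom _) _).trans (ev_congr fun x hx => lA_val ι ((lwd_spec k h).2 x hx))

theorem lG_eq {u v : List ℕ} (hu : ∀ x ∈ u, x < 42) (hv : ∀ x ∈ v, x < 42)
    (h : ev Mm u = ev Mm v) : ev (lG ι) u = ev (lG ι) v := by
  have key : ∀ w : List ℕ, (∀ x ∈ w, x < 42) → ((ev (lG ι) w : GL chevE6.Idx K) :
      Matrix chevE6.Idx chevE6.Idx K) = ι.mapMatrix (ev Mm w) := fun w hw => by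
    rw [map_ev Mm ι.mapMatrix]
    exact (map_ev _ (Units.coeHom _) _).trans (ev_congr fun x hx => lG_val ι (hw x hx))
  exact Units.ext (by rw [key u hu, key v hv, h])

theorem lG_spec {k : ℕ} (h : k < 36) : Pos (lrt (lx0 k)) ∧
    ((symE6.p (lrt (lx0 k)) = lrt (lx0 k) ∧ lG ι k = (glSys chevE6 K).x (lrt (lx0 k)) 1) ∨
      (symE6.p (lrt (lx0 k)) ≠ lrt (lx0 k) ∧ Pos (symE6.p (lrt (lx0 k))) ∧
        lG ι k = (glSys chevE6 K).x (lrt (lx0 k)) (ι (ltt (lx0 k))) *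
          (glSys chevE6 K).x (symE6.p (lrt (lx0 k))) (ι (ltt (lx0 k)) ^ 2))) := by
  obtain ⟨h0, h1 | h1⟩ := lspec k h
  · refine ⟨h0, Or.inl ⟨h1.1, ?_⟩⟩
    rw [lG, h1.2.2, ev_single, lA, h1.2.1, map_one]
  · refine ⟨h0, Or.inr ⟨h1.1, h1.2.1, ?_⟩⟩
    rw [lG, h1.2.2.1, ev_cons, ev_single, lA, lA, h1.2.2.2.1, h1.2.2.2.2, map_pow]

theorem lsurj (hK : Fintype.card K = 4) (t : K) : ∃ a, ι a = t :=
  ((Fintype.bijective_iff_injective_and_card ι).2 ⟨ι.injective, card_K4.trans hK.symm⟩).2 t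

theorem lpair (hK : Fintype.card K = 4) {L : Subgroup (GL chevE6.Idx K)} {r : Rt chevE6}
    (hr : symE6.p r ≠ r)
    (h1 : (glSys chevE6 K).x r (ι 1) * (glSys chevE6 K).x (symE6.p r) (ι 1 ^ 2) ∈ L)
    (h2 : (glSys chevE6 K).x r (ι w4) * (glSys chevE6 K).x (symE6.p r) (ι w4 ^ 2) ∈ L) (t : K) :
    (glSys chevE6 K).x r t * (glSys chevE6 K).x (symE6.p r) (t ^ 2) ∈ L := by
  obtain ⟨a, rfl⟩ := lsurj ι hK t
  rcases (lk4 a).1 with rfl | rfl | rfl | rfl
  · simp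
  · exact h1
  · exact h2
  · have e : ι (1 + w4) ^ 2 = ι 1 ^ 2 + ι w4 ^ 2 := by
      rw [← map_pow, ← map_pow, ← map_pow, ← map_add]
      exact congrArg ι (by decide +kernel)
    have c := (((lso r).2 hr).x (glSys chevE6 K) (ι w4) (ι 1 ^ 2)).eq
    rw [e, map_add, (glSys chevE6 K).add, (glSys chevE6 K).add, mul_assoc, ← mul_assoc _ _
      ((glSys chevE6 K).x (symE6.p r) (ι w4 ^ 2)), c, mul_assoc, ← mul_assoc]
    exact mul_mem h1 h2

theorem lcover (hK : Fintype.card K = 4) {L : Subgroup (GL chevE6.Idx K)} {i : ℕ} (hi : i < 5)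
    (hL : ∀ k < 36, Dl i k = false → lG ι k ∈ L) :
    (∀ r : Rt chevE6, (r : ℕ) ∉ lTT i → Pos r → symE6.p r = r → (glSys chevE6 K).x r 1 ∈ L) ∧
    ∀ r : Rt chevE6, (r : ℕ) ∉ lTT i → Pos r → symE6.p r ≠ r → ∀ t : K,
      (glSys chevE6 K).x r t * (glSys chevE6 K).x (symE6.p r) (t ^ 2) ∈ L := by
  refine ⟨fun r h1 h2 h3 => ?_, fun r h1 h2 h3 t => ?_⟩
  · obtain ⟨k, hk, hd, rfl⟩ := lcov1 i hi r h1 h2 h3
    rcases (lG_spec ι hk).2 with h | h
    · exact h.2 ▸ hL k hk hd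
    · exact absurd h3 h.1
  · obtain ⟨k, hk, hd, hd', hr, t1, r2, t2⟩ := lcov2 i hi r h1 h2 h3
    have hne : symE6.p (lrt (lx0 k)) ≠ lrt (lx0 k) := by
      rcases hr with e | e
      · rwa [e]
      · rw [e, (lso r).1]; exact h3.symm
    have key : ∀ t : K, (glSys chevE6 K).x (lrt (lx0 k)) t *
        (glSys chevE6 K).x (symE6.p (lrt (lx0 k))) (t ^ 2) ∈ L := by
      refine lpair ι hK hne ?_ ?_
      · rcases (lG_spec ι (show k < 36 by omega)).2 with h | h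
        · exact absurd h.1 hne
        · rw [← t1, ← h.2.2]; exact hL k (by omega) hd
      · rcases (lG_spec ι (show k + 1 < 36 by omega)).2 with h | h
        · exact absurd (r2 ▸ h.1) hne
        · rw [← t2, ← r2, ← h.2.2]; exact hL (k + 1) (by omega) hd'
    rcases hr with e | e
    · exact e ▸ key t
    · have := key (t ^ 2)
      obtain ⟨a, rfl⟩ := lsurj ι hK t
      rw [e, (lso r).1, ← map_pow, ← map_pow, (lk4 a).2,
        ← (((lso r).2 h3).x (glSys chevE6 K) _ _).eq, map_pow] at this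
      exact this

theorem lnA {x y : ℕ} {r : Rt chevE6} {c : K4}
    (h : lrt x = r ∧ ltt x = c ∧ lrt y = ng r ∧ ltt y * c = -1) :
    lA ι x * (lA ι y * lA ι x) = (glSys chevE6 K).n r (ι c) := by
  obtain ⟨h1, h2, h3, h4⟩ := h
  have e : ι (ltt y) = -(ι c)⁻¹ := by
    have := congrArg ι h4
    rw [map_mul, map_neg, map_one] at this
    rw [← neg_eq_iff_eq_neg]
    exact eq_inv_of_mul_eq_one_left (by rw [neg_mul, this, neg_neg])
  rw [lA, lA, h1, h2, h3, e, StSys.n, mul_assoc]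

theorem lG36 : lG ι 36 = (glSys chevE6 K).n (sim (nE6 1)) 1 := by
  rw [← map_one ι, ← lnA ι (x := 42) (y := 102) (by decide +kernel)]
  exact (show ev (lA ι) [42, 102, 42] = _ by simp only [ev_cons, ev_nil, mul_one])

theorem lG37 : lG ι 37 = (glSys chevE6 K).n (sim (nE6 3)) 1 := by
  rw [← map_one ι, ← lnA ι (x := 43) (y := 103) (by decide +kernel)]
  exact (show ev (lA ι) [43, 103, 43] = _ by simp only [ev_cons, ev_nil, mul_one])

theorem lG38 : lG ι 38 = (glSys chevE6 K).n (sim (nE6 0)) 1 * (glSys chevE6 K).n (sim (nE6 5)) 1 := by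
  rw [← map_one ι, ← lnA ι (x := 44) (y := 104) (by decide +kernel),
    ← lnA ι (x := 45) (y := 105) (by decide +kernel)]
  exact (show ev (lA ι) [44, 104, 44, 45, 105, 45] = _ by
    simp only [ev_cons, ev_nil, mul_one, mul_assoc])

theorem lG39 : lG ι 39 = (glSys chevE6 K).n (sim (nE6 2)) 1 * (glSys chevE6 K).n (sim (nE6 4)) 1 := by
  rw [← map_one ι, ← lnA ι (x := 48) (y := 106) (by decide +kernel),
    ← lnA ι (x := 49) (y := 107) (by decide +kernel)]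
  exact (show ev (lA ι) [48, 106, 48, 49, 107, 49] = _ by
    simp only [ev_cons, ev_nil, mul_one, mul_assoc])

theorem lG40 : lG ι 40 = (glSys chevE6 K).h (sim (nE6 0)) (ι w4) *
    (glSys chevE6 K).h (sim (nE6 5)) (ι w4 ^ 2) := by
  rw [StSys.h, StSys.h, ← map_one ι, ← map_neg ι, ← map_pow,
    ← lnA ι (x := 46) (y := 108) (by decide +kernel),
    ← lnA ι (x := 44) (y := 104) (by decide +kernel),
    ← lnA ι (x := 47) (y := 109) (by decide +kernel),
    ← lnA ι (x := 45) (y := 105) (by decide +kernel)]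
  exact (show ev (lA ι) [46, 108, 46, 44, 104, 44, 47, 109, 47, 45, 105, 45] = _ by
    simp only [ev_cons, ev_nil, mul_one, mul_assoc])

theorem lG41 : lG ι 41 = (glSys chevE6 K).h (sim (nE6 0)) (ι (1 + w4)) *
    (glSys chevE6 K).h (sim (nE6 5)) (ι (1 + w4) ^ 2) := by
  rw [StSys.h, StSys.h, ← map_pow, show (-1 : K) = ι (-1) by rw [map_neg, map_one],
    ← lnA ι (x := 110) (y := 111) (by decide +kernel),
    ← lnA ι (x := 44) (y := 104) (by decide +kernel),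
    ← lnA ι (x := 112) (y := 113) (by decide +kernel),
    ← lnA ι (x := 45) (y := 105) (by decide +kernel)]
  exact (show ev (lA ι) [110, 111, 110, 44, 104, 44, 112, 113, 112, 45, 105, 45] = _ by
    simp only [ev_cons, ev_nil, mul_one, mul_assoc])

theorem lG41' : lG ι 41 = lG ι 40 * lG ι 40 := by
  have := lG_eq ι (u := [41]) (v := [40, 40]) (by decide) (by decide)
    (defs ([41], [40, 40]) (by decide +kernel))
  simpa only [ev_cons, ev_nil, mul_one] using this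

theorem lG_mem (hK : Fintype.card K = 4) {k : ℕ} (h : k < 42) : lG ι k ∈ twistedE6 K 2 := by
  obtain ⟨C⟩ := exists_CE6 (K := K) (q := 2) Nat.prime_two.prime.isPrimePow hK
  have one : ∀ i : Fin 6, ((sim (nE6 i) : Rt chevE6) : ℕ) ∈ [e6p2, e6m2, e6p4, e6m4] →
      ((ng (sim (nE6 i)) : Rt chevE6) : ℕ) ∈ [e6p2, e6m2, e6p4, e6m4] →
      (glSys chevE6 K).n (sim (nE6 i)) 1 ∈ twistedE6 K 2 := fun i p1 p2 =>
    mul_mem (mul_mem (C.one_mem p1 (map_one _)) (C.one_mem p2 (by simp)))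
      (C.one_mem p1 (map_one _))
  have h40 : lG ι 40 ∈ twistedE6 K 2 := by
    rw [lG40, ← C.hψ]
    exact so3_E6.h_mem (glSys chevE6 K) C.ψ (C.two_mem (by decide +kernel))
      (C.two_mem (by decide +kernel)) _
  by_cases h1 : k < 36
  · rcases (lG_spec ι h1).2 with h | h
    · rw [h.2]; exact TrX.mem1 hK h.1
    · rw [h.2.2]; exact TrX.mem2 hK h.1 _
  obtain rfl | rfl | rfl | rfl | rfl | rfl :
    k = 36 ∨ k = 37 ∨ k = 38 ∨ k = 39 ∨ k = 40 ∨ k = 41 := by omega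
  · rw [lG36]; exact one 1 (by decide +kernel) (by decide +kernel)
  · rw [lG37]; exact one 3 (by decide +kernel) (by decide +kernel)
  · rw [lG38]
    exact TrX.SO_n_mem so3_E6 (glSys chevE6 K) C.ψ (C.two_mem (by decide +kernel))
      (C.two_mem (by decide +kernel))
  · rw [lG39]
    exact TrX.SO_n_mem so2_E6 (glSys chevE6 K) C.ψ (C.two_mem (by decide +kernel))
      (C.two_mem (by decide +kernel))
  · exact h40
  · rw [lG41']; exact mul_mem h40 h40

theorem lG_U {k : ℕ} (h : k < 36) : lG ι k ∈ (glSys chevE6 K).U := by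
  obtain ⟨h0, h | h⟩ := lG_spec ι h
  · rw [h.2]; exact (glSys chevE6 K).x_mem (T := {r | Pos r}) h0 _
  · rw [h.2.2]
    exact mul_mem ((glSys chevE6 K).x_mem (T := {r | Pos r}) h0 _)
      ((glSys chevE6 K).x_mem (T := {r | Pos r}) h.2.1 _)

theorem lTT_spec {i : ℕ} {a b : Fin 6}
    (h : ∀ r : Rt chevE6, (r : ℕ) ∈ lTT i → r = sim (nE6 a) ∨ r = sim (nE6 b)) {r : Rt chevE6}
    (hr : (r : ℕ) ∈ lTT i) : r ∈ ({sim (nE6 a), sim (nE6 b)} : Set (Rt chevE6)) := h r hr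

theorem lU_le_b (hK : Fintype.card K = 4) {L : Subgroup (GL chevE6.Idx K)} {i j : Fin 6}
    {n : GL chevE6.Idx K}
    (hn : (i = j ∧ (i = 1 ∨ i = 3) ∧ n = (glSys chevE6 K).n (sim (nE6 i)) 1) ∨
      (((i = 0 ∧ j = 5) ∨ (i = 2 ∧ j = 4)) ∧
        n = (glSys chevE6 K).n (sim (nE6 i)) 1 * (glSys chevE6 K).n (sim (nE6 j)) 1))
    (h1 : ∀ r : Rt chevE6, r ∉ ({sim (nE6 i), sim (nE6 j)} : Set (Rt chevE6)) → Pos r →
      symE6.p r = r → (glSys chevE6 K).x r 1 ∈ L)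
    (h2 : ∀ r : Rt chevE6, r ∉ ({sim (nE6 i), sim (nE6 j)} : Set (Rt chevE6)) → Pos r →
      symE6.p r ≠ r → ∀ t : K,
      (glSys chevE6 K).x r t * (glSys chevE6 K).x (symE6.p r) (t ^ 2) ∈ L) :
    ∀ x ∈ (glSys chevE6 K).U ⊓ twistedE6 K 2, n * x * n⁻¹ ∈ (glSys chevE6 K).U → x ∈ L := by
  rcases hn with ⟨rfl, h, rfl⟩ | ⟨h, rfl⟩
  · exact TrX.U_le1' hK (by simpa using h) h1 h2
  · exact TrX.U_le2' hK (p := (i, j)) (by simpa using h) h1 h2

theorem letters {K : Type u} [Field K] [Fintype K] (hK : Fintype.card K = 4) :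
    ∃ s : ℕ → twistedE6 K 2,
      (∀ e ∈ Schur.pcEqs 2 36 T ++ Schur.stEqs Y, ev s e.1 = ev s e.2) ∧
      gen s 36 = (glSys chevE6 K).U.subgroupOf (twistedE6 K 2) ∧
      (s 36).1 = (glSys chevE6 K).n (sim (nE6 1)) 1 ∧
      (s 37).1 = (glSys chevE6 K).n (sim (nE6 3)) 1 ∧
      (s 38).1 = (glSys chevE6 K).n (sim (nE6 0)) 1 * (glSys chevE6 K).n (sim (nE6 5)) 1 ∧
      (s 39).1 = (glSys chevE6 K).n (sim (nE6 2)) 1 * (glSys chevE6 K).n (sim (nE6 4)) 1 ∧
      (∀ g : twistedE6 K 2, g.1 ∈ (glSys chevE6 K).H → g = 1 ∨ g = s 40 ∨ g = s 40 * s 40) ∧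
      ∀ i < 4, ∀ x ∈ gen s 36, s (36 + i) * x * (s (36 + i))⁻¹ ∈ gen s 36 →
        x ∈ gen (fun k => if Dl i k then 1 else s k) 36 := by
  obtain ⟨ι⟩ := exists_k4hom K hK
  have hex : ∀ k < 42, ∃ g, (twistedE6 K 2).subtype g = lG ι k := fun k hk =>
    ⟨⟨_, lG_mem ι hK hk⟩, rfl⟩
  obtain ⟨s, hs, he⟩ : ∃ s : ℕ → twistedE6 K 2, (∀ k < 42, (s k).1 = lG ι k) ∧
      ∀ e ∈ Schur.pcEqs 2 36 T ++ Schur.stEqs Y, ev s e.1 = ev s e.2 :=
    ⟨liftS (twistedE6 K 2).subtype (lG ι), fun k hk => liftS_val (hex k hk),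
      eqs_liftS Subtype.val_injective hex lEE_lt fun e he =>
        lG_eq ι (lEE_lt e he).1 (lEE_lt e he).2 (ee e he)⟩
  have hL : ∀ i, ∀ k < 36, Dl i k = false →
      lG ι k ∈ (gen (fun k => if Dl i k then 1 else s k) 36).map (twistedE6 K 2).subtype :=
    fun i k hk hd => ⟨s k, by
      have := letter_mem_gen (s := fun k => if Dl i k then 1 else s k) hk
      simp only [hd, Bool.false_eq_true, if_false] at this
      exact this, hs k (by omega)⟩
  have back : ∀ {M : Subgroup (twistedE6 K 2)} {x : twistedE6 K 2},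
      x.1 ∈ M.map (twistedE6 K 2).subtype → x ∈ M := fun ⟨y, hy, e⟩ => Subtype.val_injective e ▸ hy
  have hU : gen s 36 = (glSys chevE6 K).U.subgroupOf (twistedE6 K 2) := by
    refine le_antisymm (gen_le.mpr fun k hk => ?_) fun x hx => ?_
    · rw [Subgroup.mem_subgroupOf, hs k (by omega)]; exact lG_U ι hk
    · have c := lcover ι hK (show 4 < 5 by decide) (hL 4)
      exact back (TrX.U_le hK (fun r => c.1 r (by simp [lTT])) (fun r => c.2 r (by simp [lTT]))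
        ⟨hx, x.2⟩)
  have e36 := (hs 36 (by decide)).trans (lG36 ι)
  have e37 := (hs 37 (by decide)).trans (lG37 ι)
  have e38 := (hs 38 (by decide)).trans (lG38 ι)
  have e39 := (hs 39 (by decide)).trans (lG39 ι)
  refine ⟨s, he, hU, e36, e37, e38, e39, fun g hg => ?_, fun i hi x hx hc => ?_⟩
  · obtain ⟨t, ht, e⟩ := TrX.H_cases hK g.1 ⟨hg, g.2⟩
    obtain ⟨a, rfl⟩ := lsurj ι hK t
    rcases (lk4 a).1 with rfl | rfl | rfl | rfl
    · exact absurd (map_zero ι) ht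
    · exact Or.inl (Subtype.ext (by simpa using e))
    · exact Or.inr (Or.inl (Subtype.ext (by rw [e, hs 40 (by decide), lG40])))
    · exact Or.inr (Or.inr (Subtype.ext (by
        rw [e, Subgroup.coe_mul, hs 40 (by decide), ← lG41', lG41])))
  · rw [hU, Subgroup.mem_subgroupOf] at hx hc
    have c := lcover ι hK (show i < 5 by omega) (hL i)
    have fin : ∀ a b : Fin 6,
        (∀ r : Rt chevE6, (r : ℕ) ∈ lTT i → r = sim (nE6 a) ∨ r = sim (nE6 b)) →
        ((a = b ∧ (a = 1 ∨ a = 3) ∧ (s (36 + i)).1 = (glSys chevE6 K).n (sim (nE6 a)) 1) ∨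
          (((a = 0 ∧ b = 5) ∨ (a = 2 ∧ b = 4)) ∧ (s (36 + i)).1 =
            (glSys chevE6 K).n (sim (nE6 a)) 1 * (glSys chevE6 K).n (sim (nE6 b)) 1)) →
        x ∈ gen (fun k => if Dl i k then 1 else s k) 36 := fun a b hT hn =>
      back (lU_le_b hK hn (fun r hr => c.1 r fun h => hr (lTT_spec hT h))
        (fun r hr => c.2 r fun h => hr (lTT_spec hT h)) x.1 ⟨hx, x.2⟩ hc)
    obtain rfl | rfl | rfl | rfl : i = 0 ∨ i = 1 ∨ i = 2 ∨ i = 3 := by omega
    · exact fin 1 1 (by decide +kernel) (Or.inl ⟨rfl, Or.inl rfl, e36⟩)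
    · exact fin 3 3 (by decide +kernel) (Or.inl ⟨rfl, Or.inr rfl, e37⟩)
    · exact fin 0 5 (by decide +kernel) (Or.inr ⟨Or.inl ⟨rfl, rfl⟩, e38⟩)
    · exact fin 2 4 (by decide +kernel) (Or.inr ⟨Or.inr ⟨rfl, rfl⟩, e39⟩)

end Cfsg.Agent.Comp.E6M
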