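import Cfsg.Agent.Comp.E6M.XC
import Cfsg.Agent.TrX.Def

/-! The stable extension of order `2 ^ 38`. -/

set_option autoImplicit false
set_option maxRecDepth 100000

namespace Cfsg.Agent.Comp.E6M
open Cfsg.Agent.Comp Cfsg.Agent.Schur Cfsg.Agent.Comp.Pc Cfsg.Agent.TrX Subgroup
open scoped commutatorElement

theorem rel_cut {G : Type*} [Group G] {s : ℕ → G} {i : ℕ} (hi : i < 5) (h : Pc.Rel 38 TX (Dx i) s) :
    Pc.Rel 38 TX (Dx i) (Pc.cut (Dx i) s) := fun g hg x hx a b => by
  have := cW i hi g hg x hx a b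
  rw [ev_cut, ev_cut, h g hg x hx a b]
  · unfold rhs; split_ifs
    exacts [this, List.forall_mem_cons.2 ⟨b, this⟩]
  · unfold lhs; split_ifs <;> simp [a, b]

theorem ext {G : Type*} [Group G] (s : ℕ → G) (hL : Lv 38 TX 0)
    (hE : ∀ e ∈ pcEqs 2 36 T ++ stEqs Y, ev s e.1 = ev s e.2) (hc : Nat.card (gen s 36) = 2 ^ 36)
    (hD : ∀ i < 4, ∀ x ∈ gen s 36, s (36 + i) * x * (s (36 + i))⁻¹ ∈ gen s 36 →
      x ∈ gen (Pc.cut (Dx i) s) 36) :
    ∃ (X : Type) (_ : Group X) (_ : Finite X) (π : X →* G), π.range = gen s 36 ∧ π.ker ≤ center X ∧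
      π.ker ≤ commutator X ∧ Nat.card π.ker = 4 ∧ (∀ i < 5, Stab π (s (36 + i))) ∧
      Stab π (s 40 * s 40) := by
  obtain ⟨X, _, r, _, hX, htop, -, hr⟩ := hL
  replace hr : ∀ D, Pc.Rel 38 TX D r := fun D g hg x hx _ _ => hr g hg x hx rfl rfl
  have H : Cx 38 TX r := Cx.of (D := fun _ => false) shX (by decide) nofun (hr _) fun g _ x _ => by simp
  let t : ℕ → G := fun k => if k < 36 then s k else 1
  have ht : ∀ w, ev t w = ev s (w.filter (· < 36)) := by
    intro w
    induction w with
    | nil => rfl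
    | cons a w ih => by_cases h : a < 36 <;> simp [t, h, ← ih]
  obtain ⟨φ, p1, -⟩ := univ (D := fun _ => false) (s := r) (t := t) shX nofun nofun (hr _)
    (fun g hg x hx _ _ => by
      have := cT g hg x hx
      rw [ht, ht]
      split_ifs at this with c
      · rw [this.1, this.2]
        exact hE (_, _) (List.mem_append_left _ (List.mem_flatMap.2 ⟨g, List.mem_range.2 c,
          List.mem_map.2 ⟨x, List.mem_range.2 (by omega), rfl⟩⟩))
      · rw [this])
    (by rw [htop, card_top, hX]; decide +kernel)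
  let π : X →* G := φ.comp ((MonoidHom.id X).codRestrict _ fun x => htop ▸ mem_top x)
  have a1 : ∀ k < 38, π (r k) = t k := p1
  clear_value π
  have a2 : ∀ w : List ℕ, (∀ z ∈ w, z < 38) → π (ev r w) = ev s (w.filter (· < 36)) := fun w hw => by
    rw [map_ev, ← ht]; exact ev_congr fun z hz => a1 z (hw z hz)
  have hran : π.range = gen s 36 := by
    rw [MonoidHom.range_eq_map, ← htop]
    refine le_antisymm (map_le_iff_le_comap.2 (gen_le.2 fun k hk => ?_)) (gen_le.2 fun k hk =>
      ⟨r k, letter_mem_gen (by omega), (a1 k (by omega)).trans (if_pos hk)⟩)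
    rw [mem_comap, a1 k hk]
    simp only [t]
    split_ifs with c
    exacts [letter_mem_gen c, one_mem _]
  have hker : Nat.card π.ker = 4 := by
    have := card_eq_card_quotient_mul_card_subgroup π.ker
    rw [Nat.card_congr (QuotientGroup.quotientKerEquivRange π).toEquiv, hran, hc, hX] at this
    omega
  let Z := gen (fun k => r (36 + k)) 2
  have hZ : Z ≤ center X := gen_le.2 fun k hk => mem_center_iff.2 fun g => by
    have : gen r 38 ≤ centralizer {r (36 + k)} := gen_le.2 fun j hj =>
      mem_centralizer_singleton_iff.2 (by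
        simpa using H.eq (by simp; omega) (by simp; omega) (cZ k hk j hj))
    exact mem_centralizer_singleton_iff.1 (this (htop ▸ mem_top g))
  have : Z.Normal := ⟨fun z hz g => by
    rw [mem_center_iff.mp (hZ hz) g, mul_inv_cancel_right]; exact hz⟩
  have hZk : Z = π.ker := by
    refine eq_of_le_of_card_ge (gen_le.2 fun k hk => (a1 _ (by omega)).trans (if_neg (by omega))) ?_
    have h1 := (card_le (y := fun k => QuotientGroup.mk' Z (r k)) (D := fun k => k == 36 || k == 37) shX
      (fun x hx => (QuotientGroup.eq_one_iff _).2 (by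
        simp only [Bool.or_eq_true, beq_iff_eq] at hx
        rcases hx with rfl | rfl
        exacts [letter_mem_gen (x := 0) (by decide), letter_mem_gen (x := 1) (by decide)]))
      fun g hg x hx a b => by rw [← map_ev, ← map_ev, hr (fun _ => false) g hg x hx rfl rfl]).2
    have h2 : (gen r 38).map (QuotientGroup.mk' Z) = gen (fun k => QuotientGroup.mk' Z (r k)) 38 :=
      map_genW _ _ _
    rw [← h2, htop, map_top_of_surjective _ (QuotientGroup.mk'_surjective Z), card_top,
      show cnt (fun k => k == 36 || k == 37) 38 38 = 36 by decide +kernel] at h1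
    have := card_eq_card_quotient_mul_card_subgroup Z
    rw [hX] at this
    rw [hker]
    by_contra h
    have := Nat.mul_le_mul h1 (show Nat.card Z ≤ 3 by omega)
    omega
  have key : ∀ g < 38, ∀ x < g, ∀ c, Wt TX g x = g :: c →
      ev (fun k => Abelianization.of (r k)) c = 1 := fun g hg x hx c e => by
    have := congrArg Abelianization.of (hr (fun _ => false) g hg x hx.le rfl rfl)
    rw [lhs, rhs, if_neg hx.ne, if_neg hx.ne, e, map_ev, map_ev] at this
    simpa [mul_comm, ← mul_assoc] using this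
  have k1 := key 4 (by decide) 2 (by decide) [7] (by decide +kernel)
  have k2 := key 4 (by decide) 3 (by decide) [8, 36, 37] (by decide +kernel)
  have k3 := key 5 (by decide) 2 (by decide) [8, 37] (by decide +kernel)
  have k4 := key 5 (by decide) 3 (by decide) [7, 8, 36] (by decide +kernel)
  simp only [ev_cons, ev_nil, mul_one] at k1 k2 k3 k4
  rw [mul_left_comm, k3, mul_one] at k2
  rw [k1, k2, one_mul, mul_one] at k4
  rw [k4, one_mul] at k3
  have st : ∀ i < 5, Stab π (s (36 + i)) ∧ ∀ x ∈ gen (Pc.cut (Dx i) r) 38,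
      s (36 + i) * π x * (s (36 + i))⁻¹ ∈ π.range := fun i hi => by
    obtain ⟨y1, y2⟩ := cY i hi
    obtain ⟨ψ, q1, q2⟩ := univ (s := Pc.cut (Dx i) r) (t := Pc.cut (Dx i) fun g => ev r (nth [] (B i) g)) shX
      (fun _ h => if_pos h) (fun _ h => if_pos h) (rel_cut hi (hr _)) (rel_cut hi (H.rel y1 (mp i hi)))
      (card_dx H (by rw [show Pc.cut (Dx 4) r = r from rfl, htop, card_top, hX]) i hi)
    have q3 : ∀ y, π (ψ y) = s (36 + i) * π y * (s (36 + i))⁻¹ :=
      q2 ((π.comp (MonoidHom.snd _ _)).eqLocus ((MulAut.conj (s (36 + i))).toMonoidHom.comp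
        (π.comp (MonoidHom.fst _ _)))) fun k hk => by
        obtain ⟨b1, b2, b3⟩ := y2 k hk
        change π (Pc.cut (Dx i) (fun g => ev r (nth [] (B i) g)) k) =
          s (36 + i) * π (Pc.cut (Dx i) r k) * (s (36 + i))⁻¹
        cases c : Dx i k
        · simp only [Pc.cut, c, Bool.false_eq_true, if_false]
          rw [a2 _ b1, a1 k hk]
          by_cases d : k < 36
          · have := hE _ (List.mem_append_right _ (List.mem_map_of_mem (b2 c d)))
            simp only [ev_cons, ev_nil, mul_one, ev_append] at this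
            simp only [t, if_pos d, this, mul_inv_cancel_right]
          · simp [(b3 (by omega)).1, t, d]
        · simp [Pc.cut, c]
    have z1 : ∀ k < 2, Pc.cut (Dx i) r (36 + k) = r (36 + k) := fun k hk => by
      simp [Pc.cut, ((y2 (36 + k) (by omega)).2.2 (by omega)).2]
    have hle : gen (Pc.cut (Dx i) s) 36 ≤ (gen (Pc.cut (Dx i) r) 38).map π := gen_le.2 fun k hk =>
      ⟨_, letter_mem_gen (show k < 38 by omega), by
        unfold Pc.cut; split_ifs
        exacts [map_one _, (a1 k (by omega)).trans (if_pos hk)]⟩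
    have hdom : dom π (s (36 + i)) ≤ gen (Pc.cut (Dx i) r) 38 := fun x hx => by
      have h1 : π x ∈ gen s 36 := hran ▸ ⟨x, rfl⟩
      obtain ⟨y, hy, e⟩ := hle (show π x ∈ _ by
        by_cases c : i < 4
        · exact hD i c _ h1 (hran ▸ mem_dom.1 hx)
        · obtain rfl : i = 4 := by omega
          exact h1)
      have h2 : Z ≤ gen (Pc.cut (Dx i) r) 38 := gen_le.2 fun k hk =>
        z1 k hk ▸ letter_mem_gen (by omega)
      exact (mul_mem_cancel_left (inv_mem hy)).1 (h2 (hZk ▸ by simp [MonoidHom.mem_ker, e]))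
    refine ⟨⟨ψ.comp (inclusion hdom), fun x => q3 _, fun x hx => ?_⟩, fun x hx => ⟨_, q3 ⟨x, hx⟩⟩⟩
    have h3 : Z ≤ (ψ.eqLocus (Subgroup.subtype _)).map (Subgroup.subtype _) := gen_le.2 fun k hk =>
      ⟨⟨_, letter_mem_gen (show 36 + k < 38 by omega)⟩, (q1 _ (by omega)).trans (by
        obtain ⟨b1, b2⟩ := (y2 (36 + k) (by omega)).2.2 (by omega)
        simp [Pc.cut, b1, b2]), z1 k hk⟩
    obtain ⟨y, h4, h5⟩ := h3 (hZk ▸ hx : (x : X) ∈ Z)
    obtain rfl : y = inclusion hdom x := Subtype.ext h5
    exact h4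
  refine ⟨X, inferInstance, inferInstance, π, hran, hZk ▸ hZ, hZk ▸ gen_le.2 fun k hk => ?_, hker,
    fun i hi => (st i hi).1, (st 4 (by decide)).1.mul (st 4 (by decide)).1 fun x _ =>
      (st 4 (by decide)).2 x (show x ∈ gen r 38 from htop ▸ mem_top x)⟩
  rw [← Abelianization.ker_of]
  interval_cases k
  exacts [k2, k3]

end Cfsg.Agent.Comp.E6M
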