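import Cfsg.Agent.Comp.E6M.Let
import Cfsg.Agent.Comp.E6M.Cert
import Cfsg.Agent.Comp.E6M.XM
import Cfsg.Agent.Comp.E6M.XL0
import Cfsg.Agent.Comp.E6M.XL1
import Cfsg.Agent.Comp.E6M.XL2
import Cfsg.Agent.Comp.E6M.XL3
import Cfsg.Agent.TrX.S
import Cfsg.Agent.TrX.T
import Cfsg.Agent.TrX.O

/-! The Schur multiplier of `²E₆(2)`. -/

set_option autoImplicit false
set_option maxRecDepth 100000

namespace Cfsg.Agent.Comp.E6M
open Cfsg.Agent.Comp Cfsg.Agent.Comp.Pc Cfsg.Lie Cfsg.Agent.Chev Cfsg.Agent.TrX Subgroup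

attribute [local instance] good2E6

theorem lv : Lv 38 TX 0 := lv0 (lv1 (lv2 (lv3 (lv4 (lv5 (lv6 (lv7 (lv8 (lv9 (lv10 (lv11 (lv12 (lv13 (lv14 (lv15 (lv16 (lv17 (lv18 (lv19 (lv20 (lv21 (lv22 (lv23 (lv24 (lv25 (lv26 (lv27 (lv28 (lv29 (lv30 (lv31 (lv32 (lv33 (lv34 (lv35 (lv36 (lv37 (lv_top 38 TX))))))))))))))))))))))))))))))))))))))

theorem shape : Schur.PCShape 36 (Schur.Wt T) ∧ 36 ≤ 63 ∧ Schur.tri 36 ≤ 840 ∧
    ∀ e ∈ Y, (∀ x ∈ e.2.1, x < 63) ∧ ∀ x ∈ e.2.2, x < 63 := by decide +kernel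

theorem has {K : Type*} [Field K] [Fintype K] (hK : Fintype.card K = 4) :
    HasSchurMultiplier (twistedE6 K 2) (Multiplicative (ZMod 3 × ZMod 2 × ZMod 2)) := by
  obtain ⟨s, hE, hU, n1, n2, n3, n4, hH, hD⟩ := letters hK
  have hq : IsPrimePow 2 := Nat.prime_two.isPrimePow
  have hc : Nat.card (gen s 36) = 2 ^ 36 := by
    rw [hU, ← card_U_twE6 hq (show Fintype.card K = 2 ^ 2 from hK), ← inf_subgroupOf_right]
    exact Nat.card_congr (subgroupOfEquivOfLe inf_le_right).toEquiv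
  have hG : Nat.card (twistedE6 K 2) = 2 ^ 36 * 1113694156575 := by
    have := card_twE6 hq (show Fintype.card K = 2 ^ 2 from hK)
    norm_num at this
    omega
  have : Finite (twistedE6 K 2) := Nat.finite_of_card_ne_zero (by rw [hG]; norm_num)
  refine final hK (Schur.pgen_of (s := s) (n := 36) (p2 := 0) (J := 840) (T := T) (Y := Y)
    Nat.prime_two rfl hE hc.ge (by rw [hG]; norm_num) shape (E := 1) (I := I) ins ord (a := 1) tgt
    (by decide +kernel)) ?_
  obtain ⟨X, _, _, π, h1, h2, h3, h4, h5, h6⟩ := ext s lv hE hc hD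
  rw [← h4]
  refine dvd_mult π h2 h3 ?_ (stab_all hK π h2 (h1.trans hU) (fun i hi g hg => ?_)
    (fun p hp g hg => ?_) fun g hg => ?_)
  · have := π.range.card_mul_index
    rw [h1, hc, hG] at this
    rw [h4, h1, Nat.eq_of_mul_eq_mul_left (by norm_num) this]
    norm_num
  · simp only [List.mem_cons, List.not_mem_nil, or_false] at hi
    rcases hi with rfl | rfl
    · exact Subtype.ext (n1.trans hg.symm) ▸ h5 0 (by decide)
    · exact Subtype.ext (n2.trans hg.symm) ▸ h5 1 (by decide)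
  · simp only [List.mem_cons, List.not_mem_nil, or_false] at hp
    rcases hp with rfl | rfl
    · exact Subtype.ext (n3.trans hg.symm) ▸ h5 2 (by decide)
    · exact Subtype.ext (n4.trans hg.symm) ▸ h5 3 (by decide)
  · rcases hH g hg with rfl | rfl | rfl
    exacts [stab_range h2 (one_mem _), h5 4 (by decide), h6]

end Cfsg.Agent.Comp.E6M
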