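import Cfsg.Agent.Comp.E6M.Mat

set_option autoImplicit false
set_option maxRecDepth 100000

namespace Cfsg.Agent.Comp.E6M
open Cfsg.Agent.Comp

theorem m0 : Mm 42 = Lie.chevE6.x K4 46 (1) := by rw [Mfast]; decide +kernel

theorem m4 : Mm 46 = Lie.chevE6.x K4 56 (w4) := by rw [Mfast]; decide +kernel

theorem m8 : Mm 50 = Lie.chevE6.x K4 42 (w4) := by rw [Mfast]; decide +kernel

theorem m12 : Mm 54 = Lie.chevE6.x K4 38 (1) := by rw [Mfast]; decide +kernel

theorem m16 : Mm 58 = Lie.chevE6.x K4 40 (1) := by rw [Mfast]; decide +kernel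

theorem m20 : Mm 62 = Lie.chevE6.x K4 58 (1) := by rw [Mfast]; decide +kernel

theorem m24 : Mm 66 = Lie.chevE6.x K4 50 (1) := by rw [Mfast]; decide +kernel

theorem m28 : Mm 70 = Lie.chevE6.x K4 51 (1) := by rw [Mfast]; decide +kernel

theorem m32 : Mm 74 = Lie.chevE6.x K4 49 (w4 + 1) := by rw [Mfast]; decide +kernel

theorem m36 : Mm 78 = Lie.chevE6.x K4 45 (w4 + 1) := by rw [Mfast]; decide +kernel

theorem m40 : Mm 82 = Lie.chevE6.x K4 52 (1) := by rw [Mfast]; decide +kernel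

theorem m44 : Mm 86 = Lie.chevE6.x K4 64 (1) := by rw [Mfast]; decide +kernel

theorem m48 : Mm 90 = Lie.chevE6.x K4 65 (1) := by rw [Mfast]; decide +kernel

theorem m52 : Mm 94 = Lie.chevE6.x K4 55 (w4 + 1) := by rw [Mfast]; decide +kernel

theorem m56 : Mm 98 = Lie.chevE6.x K4 66 (w4 + 1) := by rw [Mfast]; decide +kernel

theorem m60 : Mm 102 = Lie.chevE6.x K4 25 (1) := by rw [Mfast]; decide +kernel

theorem m64 : Mm 106 = Lie.chevE6.x K4 29 (1) := by rw [Mfast]; decide +kernel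

theorem m68 : Mm 110 = Lie.chevE6.x K4 56 (w4 + 1) := by rw [Mfast]; decide +kernel

end Cfsg.Agent.Comp.E6M
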