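import Cfsg.Agent.Comp.E6M.XD
import Cfsg.Agent.Comp.E6M.CD

set_option autoImplicit false
set_option maxRecDepth 100000
set_option synthInstance.maxSize 2000

namespace Cfsg.Agent.Comp.E6M
open Cfsg.Agent.Comp Cfsg.Agent.Schur Cfsg.Agent.Comp.Pc

/-- the letters of a simple orbit -/
def Dx (i k : ℕ) : Bool := if i = 0 then k == 0 else if i = 1 then k == 1 else
  if i = 2 then (k == 2 || k == 3) else if i = 3 then (k == 4 || k == 5) else false

theorem cT : ∀ g < 38, ∀ x ≤ g, if g < 36 then (lhs 2 g x).filter (· < 36) = lhs 2 g x ∧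
    (rhs (Wt TX) g x).filter (· < 36) = rhs (Wt T) g x else
    (lhs 2 g x).filter (· < 36) = (rhs (Wt TX) g x).filter (· < 36) := by decide +kernel

theorem cY : ∀ i < 5, (∀ u ∈ B i, ∀ x ∈ u, x < 63) ∧ ∀ k < 38, (∀ x ∈ nth [] (B i) k, x < 38) ∧
    (Dx i k = false → k < 36 → (36 + i, [k], (nth [] (B i) k).filter (· < 36)) ∈ Y) ∧
    (36 ≤ k → nth [] (B i) k = [k] ∧ Dx i k = false) := by decide +kernel

theorem cW : ∀ i < 5, ∀ g < 38, ∀ x ≤ g, Dx i g = false → Dx i x = false →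
    ∀ z ∈ Wt TX g x, Dx i z = false := by decide +kernel

theorem cZ : ∀ k < 2, ∀ j < 38, eqC 38 TX [j, 36 + k] [36 + k, j] = true := by decide +kernel

theorem mp0 : mapB (nat_lit 38) TX TX (Dx 0) B0 (nat_lit 0) (nat_lit 38) = true := by decide +kernel
theorem mp1 : mapB (nat_lit 38) TX TX (Dx 1) B1 (nat_lit 0) (nat_lit 38) = true := by decide +kernel
theorem mp2 : mapB (nat_lit 38) TX TX (Dx 2) B2 (nat_lit 0) (nat_lit 38) = true := by decide +kernel
theorem mp3 : mapB (nat_lit 38) TX TX (Dx 3) B3 (nat_lit 0) (nat_lit 38) = true := by decide +kernel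
theorem mp4 : mapB (nat_lit 38) TX TX (Dx 4) B4 (nat_lit 0) (nat_lit 38) = true := by decide +kernel

theorem mp : ∀ i < 5, MapOK 38 TX TX (Dx i) (B i) 0 38 := by
  intro i hi
  interval_cases i
  exacts [.of 38 rfl mp0, .of 38 rfl mp1, .of 38 rfl mp2, .of 38 rfl mp3, .of 38 rfl mp4]

theorem card_dx {X : Type} [Group X] [Finite X] {r : ℕ → X} (H : Cx 38 TX r)
    (h : Nat.card (gen (cut (Dx 4) r) 38) = 2 ^ 38) :
    ∀ i < 5, 2 ^ cnt (Dx i) 38 38 ≤ Nat.card (gen (cut (Dx i) r) 38) := by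
  have h0 := H.card_cut (by decide) (D := Dx 0) (D' := Dx 4) (a := 0) (V := V0) (by decide +kernel)
    (by decide +kernel)
  have h1 := H.card_cut (by decide) (D := Dx 1) (D' := Dx 4) (a := 1) (V := V1) (by decide +kernel)
    (by decide +kernel)
  have h2 := H.card_cut (by decide) (D := (· == 2)) (D' := Dx 4) (a := 2) (V := V2) (by decide +kernel)
    (by decide +kernel)
  have h3 := H.card_cut (by decide) (D := Dx 2) (D' := (· == 2)) (a := 3) (V := V3) (by decide +kernel)
    (by decide +kernel)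
  have h4 := H.card_cut (by decide) (D := (· == 4)) (D' := Dx 4) (a := 4) (V := V4) (by decide +kernel)
    (by decide +kernel)
  have h5 := H.card_cut (by decide) (D := Dx 3) (D' := (· == 4)) (a := 5) (V := V5) (by decide +kernel)
    (by decide +kernel)
  have c : cnt (Dx 0) 38 38 = 37 ∧ cnt (Dx 1) 38 38 = 37 ∧ cnt (Dx 2) 38 38 = 36 ∧
      cnt (Dx 3) 38 38 = 36 ∧ cnt (Dx 4) 38 38 = 38 := by decide +kernel
  intro i hi
  interval_cases i <;> simp only [c] <;> omega

end Cfsg.Agent.Comp.E6M
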